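import Cfsg.Agent.Geom.Forms

/-! Reduction modulo `2` of an odd-dimensional rational representation: there is a trivial
composition factor. -/

set_option autoImplicit false

namespace CF.Fong

open Module TensorProduct

theorem even_add_ker {F V : Type*} [Field F] [AddCommGroup V] [Module F V]
    [FiniteDimensional F V] {β : LinearMap.BilinForm F V} (h : β.IsAlt) :
    Even (finrank F V + finrank F (LinearMap.ker β)) := by
  obtain ⟨U, hU⟩ := (LinearMap.ker β).exists_isCompl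
  have h1 : ∀ x : U, (∀ y : U, β.restrict U x y = 0) → x = 0 := fun x hx => by
    have : (x : V) ∈ LinearMap.ker β ⊓ U := ⟨LinearMap.ext fun y => by
      obtain ⟨k, u, rfl, -⟩ := Submodule.existsUnique_add_of_isCompl hU y
      rw [map_add, h.isRefl _ _ (LinearMap.congr_fun k.2 x), zero_add]
      exact hx u, x.2⟩
    rwa [hU.inf_eq_bot, Submodule.mem_bot, Submodule.coe_eq_zero] at this
  have h2 : (β.restrict U).IsAlt := fun x => h x
  obtain ⟨k, hk⟩ := CF.Geom.even_finrank_of_alt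
    ⟨h1, fun x hx => h1 x fun y => h2.isRefl _ _ (hx y)⟩ h2
  have := Submodule.finrank_add_eq_of_isCompl hU
  exact ⟨finrank F (LinearMap.ker β) + k, by omega⟩

/-! ### reduction of a free module -/

section red
variable {L : Type*} [AddCommGroup L]

/-- reduction modulo two -/
abbrev R2 (L : Type*) [AddCommGroup L] : Type _ := ZMod 2 ⊗[ℤ] L

theorem exists_red (u : R2 L) : ∃ x : L, u = 1 ⊗ₜ x := by
  induction u using TensorProduct.induction_on with
  | zero => exact ⟨0, by simp⟩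
  | tmul a x =>
    obtain ⟨n, rfl⟩ := ZMod.intCast_surjective a
    exact ⟨n • x, by rw [← smul_tmul]; simp⟩
  | add u v hu hv =>
    obtain ⟨x, rfl⟩ := hu
    obtain ⟨y, rfl⟩ := hv
    exact ⟨x + y, by rw [tmul_add]⟩

theorem red_two (x : L) : ((1 : ZMod 2) ⊗ₜ[ℤ] ((2 : ℤ) • x) : R2 L) = 0 := by
  rw [← smul_tmul]
  have : (2 : ℤ) • (1 : ZMod 2) = 0 := by decide
  rw [this, zero_tmul]

theorem red_eq_zero [Module.Free ℤ L] [Module.Finite ℤ L] {x : L} :
    ((1 : ZMod 2) ⊗ₜ[ℤ] x : R2 L) = 0 ↔ ∃ y, x = (2 : ℤ) • y := by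
  refine ⟨fun h => ?_, by rintro ⟨y, rfl⟩; exact red_two y⟩
  let b := Module.Free.chooseBasis ℤ L
  have h2 : ∀ i, ∃ k, b.repr x i = 2 * k := fun i => by
    have := congrArg (fun u => (b.baseChange (ZMod 2)).repr u i) h
    simp only [Basis.baseChange_repr_tmul, map_zero, Finsupp.coe_zero, Pi.zero_apply,
      zsmul_eq_mul, mul_one] at this
    exact (ZMod.intCast_zmod_eq_zero_iff_dvd _ 2).1 this
  choose k hk using h2
  refine ⟨∑ i, k i • b i, ?_⟩
  conv_lhs => rw [← b.sum_repr x]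
  simp [Finset.smul_sum, hk, mul_smul]

theorem two_red (u : R2 L) : u + u = 0 := by
  rw [← two_smul (ZMod 2), show (2 : ZMod 2) = 0 from rfl, zero_smul]

/-- an element of order dividing `3` that is trivial modulo `2` is trivial -/
theorem eq_one_of_red [Module.Free ℤ L] [Module.Finite ℤ L] {f : End ℤ L} (h3 : f ^ 3 = 1)
    (h : f.baseChange (ZMod 2) = 1) : f = 1 := by
  have h1 : (f * f + f + 1).baseChange (ZMod 2) = 1 := by
    rw [LinearMap.baseChange_add, LinearMap.baseChange_add, LinearMap.baseChange_mul, h,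
      LinearMap.baseChange_one]
    refine LinearMap.ext fun u => ?_
    simp [two_red]
  have h2 : LinearMap.det (f * f + f + 1) ≠ 0 := fun e => by
    have := LinearMap.det_baseChange (A := ZMod 2) (f * f + f + 1)
    rw [h1, e] at this
    simp at this
  have h4 := not_not.1 (mt LinearMap.det_eq_zero_iff_ker_ne_bot.2 h2)
  refine LinearMap.ext fun x => ?_
  have h5 : (f * f + f + 1) * (f - 1) = 0 := by
    have : (f * f + f + 1) * (f - 1) = f ^ 3 - 1 := by noncomm_ring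
    rw [this, h3, sub_self]
  have := LinearMap.ker_eq_bot'.1 h4 ((f - 1) x) (LinearMap.congr_fun h5 x)
  simpa [sub_eq_zero] using this

/-- the section of codimension one -/
theorem exists_GL {G : Type*} [Group G] [Module.Free ℤ L] [Module.Finite ℤ L] {n : ℕ}
    (hn : finrank ℤ L = n + 1) (σ : G →* End ℤ L) (q : L →ₗ[ℤ] ZMod 2) (hq : q ≠ 0)
    (hi : ∀ g x, q (σ g x) = q x) : ∃ φ : G →* GL (Fin n) (ZMod 2),
      (∀ g, σ g = 1 → φ g = 1) ∧ ∀ g, g ^ 3 = 1 → φ g = 1 → σ g = 1 := by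
  let Q : R2 L →ₗ[ZMod 2] ZMod 2 := q.liftBaseChange (ZMod 2)
  have hQ : ∀ x, Q (1 ⊗ₜ x) = q x := fun x => by simp [Q]
  have hQ0 : Q ≠ 0 := fun e => hq (LinearMap.ext fun x => by rw [← hQ, e]; rfl)
  have hQi : ∀ g u, Q ((σ g).baseChange (ZMod 2) u) = Q u := fun g u => by
    obtain ⟨x, rfl⟩ := exists_red u
    rw [LinearMap.baseChange_tmul, hQ, hQ, hi]
  have hN : finrank (ZMod 2) (LinearMap.ker Q) = n := by
    have := Module.Dual.finrank_ker_add_one_of_ne_zero hQ0
    rw [Module.finrank_baseChange, hn] at this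
    omega
  let r : G →* End (ZMod 2) (LinearMap.ker Q) :=
    { toFun := fun g => ((σ g).baseChange (ZMod 2)).restrict fun u hu => by
        rw [LinearMap.mem_ker, hQi]; exact hu
      map_one' := LinearMap.ext fun u => Subtype.ext (by
        simp [LinearMap.restrict_apply, LinearMap.baseChange_one])
      map_mul' := fun g h => LinearMap.ext fun u => Subtype.ext (by
        simp [LinearMap.restrict_apply, LinearMap.baseChange_mul]) }
  have hr : ∀ g u, (r g u : R2 L) = (σ g).baseChange (ZMod 2) u := fun g u => rfl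
  let b := Module.finBasisOfFinrankEq (ZMod 2) (LinearMap.ker Q) hN
  let m : G →* Matrix (Fin n) (Fin n) (ZMod 2) :=
    (LinearMap.toMatrixAlgEquiv b).toMulEquiv.toMonoidHom.comp r
  have hm : ∀ g, m.toHomUnits g = 1 ↔ r g = 1 := fun g => by
    rw [Units.ext_iff]
    exact (LinearMap.toMatrixAlgEquiv b).toMulEquiv.map_eq_one_iff
  refine ⟨m.toHomUnits, fun g h => (hm g).2 (LinearMap.ext fun u => Subtype.ext ?_),
    fun g h3 h => eq_one_of_red (by rw [← map_pow, h3, map_one]) ?_⟩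
  · rw [hr, h, LinearMap.baseChange_one]; rfl
  · set f := (σ g).baseChange (ZMod 2)
    have h1 : ∀ u, f (f u) = u := fun u => by
      have k : f u - u ∈ LinearMap.ker Q := by rw [LinearMap.mem_ker, map_sub, hQi, sub_self]
      have := congrArg Subtype.val (LinearMap.congr_fun ((hm g).1 h) ⟨_, k⟩)
      rw [hr] at this
      change f (f u - u) = f u - u at this
      rw [map_sub, sub_eq_iff_eq_add, sub_add_eq_add_sub, two_red, zero_sub,
        neg_eq_of_add_eq_zero_right (two_red u)] at this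
      exact this
    have h2 : f ^ 3 = 1 := by
      rw [← LinearMap.baseChange_pow, ← map_pow, h3, map_one, LinearMap.baseChange_one]
    refine LinearMap.ext fun u => ?_
    have := LinearMap.congr_fun h2 u
    rw [pow_three, End.mul_apply, End.mul_apply, h1] at this
    exact this

end red

/-! ### lattices -/

section lat
variable {V : Type*} [AddCommGroup V] [Module ℚ V]

/-- integrality of a form on a lattice -/
def Intg (b : LinearMap.BilinForm ℚ V) (L : Submodule ℤ V) : Prop :=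
  ∀ x ∈ L, ∀ y ∈ L, ∃ n : ℤ, b x y = n

theorem Intg.exists_form {b : LinearMap.BilinForm ℚ V} {L : Submodule ℤ V} (h : Intg b L) :
    ∃ β : LinearMap.BilinForm ℤ L, ∀ x y : L, (β x y : ℚ) = b x y := by
  choose f hf using h
  have c : ∀ {m n : ℤ}, (m : ℚ) = n → m = n := fun h => by exact_mod_cast h
  refine ⟨LinearMap.mk₂ ℤ (fun x y => f x x.2 y y.2) (fun x y z => c ?_) (fun a x y => c ?_)
    (fun x y z => c ?_) fun a x y => c ?_, fun x y => (hf _ _ _ _).symm⟩
  all_goals simp [← hf]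

/-- the radical modulo two -/
def rad (b : LinearMap.BilinForm ℚ V) (L : Submodule ℤ V) : Submodule ℤ V where
  carrier := {x | x ∈ L ∧ ∀ y ∈ L, ∃ n : ℤ, b x y = 2 * n}
  add_mem' := fun ⟨a, k⟩ ⟨a', k'⟩ => ⟨L.add_mem a a', fun y hy => by
    obtain ⟨n, e⟩ := k y hy
    obtain ⟨n', e'⟩ := k' y hy
    exact ⟨n + n', by simp [e, e', mul_add]⟩⟩
  zero_mem' := ⟨L.zero_mem, fun _ _ => ⟨0, by simp⟩⟩
  smul_mem' := fun c _ ⟨a, k⟩ => ⟨L.smul_mem c a, fun y hy => by
    obtain ⟨n, e⟩ := k y hy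
    exact ⟨c * n, by simp [e]; ring⟩⟩

theorem rad_le (b : LinearMap.BilinForm ℚ V) (L : Submodule ℤ V) : rad b L ≤ L := fun _ h => h.1

theorem two_mem_rad {b : LinearMap.BilinForm ℚ V} {L : Submodule ℤ V} (h : Intg b L) {x : V}
    (hx : x ∈ L) : (2 : ℤ) • x ∈ rad b L := ⟨L.smul_mem _ hx, fun y hy => by
  obtain ⟨n, e⟩ := h x hx y hy
  exact ⟨n, by simp [e]⟩⟩

theorem intg_rad (b : LinearMap.BilinForm ℚ V) (L : Submodule ℤ V) :
    Intg ((1 / 2 : ℚ) • b) (rad b L) := fun x hx y hy => by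
  obtain ⟨n, e⟩ := hx.2 y hy.1
  exact ⟨n, by simp [e]⟩

theorem lattice_rad {b : LinearMap.BilinForm ℚ V} {L : Submodule ℤ V} [L.IsLattice ℚ]
    (h : Intg b L) : (rad b L).IsLattice ℚ where
  fg := (Submodule.IsLattice.fg (A := ℚ)).of_le (rad_le b L)
  span_eq_top := by
    rw [eq_top_iff, ← Submodule.IsLattice.span_eq_top (A := ℚ) (M := L), Submodule.span_le]
    intro x hx
    have := Submodule.smul_mem _ (1 / 2 : ℚ) (Submodule.subset_span (R := ℚ) (two_mem_rad h hx))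
    rwa [← Int.cast_smul_eq_zsmul ℚ, smul_smul, show (1 / 2 : ℚ) * ((2 : ℤ) : ℚ) = 1 by norm_num,
      one_smul] at this

theorem finrank_lat (L : Submodule ℤ V) [L.IsLattice ℚ] : finrank ℤ L = finrank ℚ V := by
  let b := Module.Free.chooseBasis ℤ L
  rw [finrank_eq_card_basis b, finrank_eq_card_basis (b.extendOfIsLattice ℚ)]

theorem mem_ker_red {b : LinearMap.BilinForm ℚ V} {L : Submodule ℤ V}
    {β : LinearMap.BilinForm ℤ L} (hβ : ∀ x y : L, (β x y : ℚ) = b x y) (x : L) :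
    (1 : ZMod 2) ⊗ₜ[ℤ] x ∈ LinearMap.ker (β.baseChange (ZMod 2)) ↔ (x : V) ∈ rad b L := by
  constructor
  · refine fun h => ⟨x.2, fun y hy => ?_⟩
    have := LinearMap.congr_fun h (1 ⊗ₜ ⟨y, hy⟩)
    simp only [LinearMap.BilinForm.baseChange_tmul, mul_one, zsmul_eq_mul,
      LinearMap.zero_apply] at this
    obtain ⟨n, e⟩ := (ZMod.intCast_zmod_eq_zero_iff_dvd _ 2).1 this
    exact ⟨n, by rw [← hβ x ⟨y, hy⟩, e]; simp⟩
  · refine fun h => LinearMap.ext fun u => ?_
    obtain ⟨y, rfl⟩ := exists_red u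
    obtain ⟨n, e⟩ := h.2 y y.2
    have : β x y = 2 * n := by rw [← hβ] at e; exact_mod_cast e
    simp only [LinearMap.BilinForm.baseChange_tmul, mul_one, zsmul_eq_mul,
      LinearMap.zero_apply]
    exact (ZMod.intCast_zmod_eq_zero_iff_dvd _ 2).2 ⟨n, this⟩

theorem alt_red {b : LinearMap.BilinForm ℚ V} {L : Submodule ℤ V}
    {β : LinearMap.BilinForm ℤ L} (hβ : ∀ x y : L, (β x y : ℚ) = b x y)
    (h : ∀ x ∈ L, ∃ n : ℤ, b x x = 2 * n) : (β.baseChange (ZMod 2)).IsAlt := fun u => by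
  obtain ⟨x, rfl⟩ := exists_red u
  obtain ⟨n, e⟩ := h x x.2
  have : β x x = 2 * n := by rw [← hβ] at e; exact_mod_cast e
  simp only [LinearMap.BilinForm.baseChange_tmul, mul_one, zsmul_eq_mul]
  exact (ZMod.intCast_zmod_eq_zero_iff_dvd _ 2).2 ⟨n, this⟩

/-- if both Jordan constituents are even the rank is even -/
theorem even_rank {b : LinearMap.BilinForm ℚ V} {L : Submodule ℤ V} [L.IsLattice ℚ]
    (hs : ∀ x y, b x y = b y x) (h : Intg b L) (h1 : ∀ x ∈ L, ∃ n : ℤ, b x x = 2 * n)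
    (h2 : ∀ x ∈ rad b L, ∃ n : ℤ, ((1 / 2 : ℚ) • b) x x = 2 * n)
    (hm : ∀ x ∈ rad ((1 / 2 : ℚ) • b) (rad b L), ∃ y ∈ L, x = (2 : ℤ) • y) :
    Even (finrank ℚ V) := by
  haveI := lattice_rad h
  obtain ⟨β, hβ⟩ := h.exists_form
  obtain ⟨β', hβ'⟩ := (intg_rad b L).exists_form
  have e1 := even_add_ker (alt_red hβ h1)
  have e2 := even_add_ker (alt_red hβ' h2)
  let f := (Submodule.inclusion (rad_le b L)).baseChange (ZMod 2)
  have k1 : LinearMap.range f = LinearMap.ker (β.baseChange (ZMod 2)) := by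
    ext u
    constructor
    · rintro ⟨w, rfl⟩
      obtain ⟨x, rfl⟩ := exists_red w
      exact (mem_ker_red hβ _).2 x.2
    · intro hu
      obtain ⟨x, rfl⟩ := exists_red u
      exact ⟨1 ⊗ₜ ⟨x, (mem_ker_red hβ _).1 hu⟩, rfl⟩
  have k2 : LinearMap.ker f = LinearMap.ker (β'.baseChange (ZMod 2)) := by
    ext u
    obtain ⟨x, rfl⟩ := exists_red u
    rw [mem_ker_red hβ', LinearMap.mem_ker, LinearMap.baseChange_tmul, red_eq_zero]
    constructor
    · rintro ⟨y, e⟩
      have e' : (x : V) = (2 : ℤ) • (y : V) := congrArg Subtype.val e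
      refine ⟨x.2, fun z hz => ?_⟩
      obtain ⟨n, k⟩ := hz.2 y y.2
      exact ⟨n, by rw [e']; simp [hs y z, k]⟩
    · intro hx
      obtain ⟨y, hy, e⟩ := hm _ hx
      exact ⟨⟨y, hy⟩, Subtype.ext e⟩
  have := f.finrank_range_add_finrank_ker
  rw [k1, k2] at this
  rw [Module.finrank_baseChange, finrank_lat] at e1 e2 this
  obtain ⟨a, ha⟩ := e1
  obtain ⟨c, hc⟩ := e2
  exact ⟨a + c - finrank ℚ V, by omega⟩

variable {G : Type*} [Group G] (ρ : G →* End ℚ V)

/-- invariant lattices -/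
def Inv (L : Submodule ℤ V) : Prop := ∀ g, ∀ x ∈ L, ρ g x ∈ L

variable {ρ}

/-- the action on an invariant lattice -/
def Inv.act {L : Submodule ℤ V} (h : Inv ρ L) : G →* End ℤ L where
  toFun g := ((ρ g).restrictScalars ℤ).restrict (h g)
  map_one' := LinearMap.ext fun u => Subtype.ext (by simp [LinearMap.restrict_apply])
  map_mul' g k := LinearMap.ext fun u => Subtype.ext (LinearMap.congr_fun (map_mul ρ g k) u)

theorem Inv.act_coe {L : Submodule ℤ V} (h : Inv ρ L) (g : G) (x : L) :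
    (h.act g x : V) = ρ g x := rfl

theorem Inv.act_eq_one {L : Submodule ℤ V} [L.IsLattice ℚ] (h : Inv ρ L) {g : G} :
    h.act g = 1 ↔ ρ g = 1 := by
  refine ⟨fun e => ?_, fun e => LinearMap.ext fun x => Subtype.ext (by rw [act_coe, e]; rfl)⟩
  refine LinearMap.ext_on (Submodule.IsLattice.span_eq_top (A := ℚ) (M := L)) fun x hx => ?_
  exact congrArg Subtype.val (LinearMap.congr_fun e ⟨x, hx⟩)

/-- the conclusion -/
def Concl (ρ : G →* End ℚ V) (n : ℕ) : Prop := ∃ φ : G →* GL (Fin n) (ZMod 2),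
  (∀ g, ρ g = 1 → φ g = 1) ∧ ∀ g, g ^ 3 = 1 → φ g = 1 → ρ g = 1

theorem concl_of_odd {n : ℕ} (hn : finrank ℚ V = n + 1) {b : LinearMap.BilinForm ℚ V}
    (hs : ∀ x y, b x y = b y x) (hb : ∀ g x y, b (ρ g x) (ρ g y) = b x y) {L : Submodule ℤ V}
    [L.IsLattice ℚ] (hi : Inv ρ L) (h : Intg b L) (ho : ¬ ∀ x ∈ L, ∃ n : ℤ, b x x = 2 * n) :
    Concl ρ n := by
  obtain ⟨β, hβ⟩ := h.exists_form
  have c : ∀ {m n : ℤ}, (m : ℚ) = n → m = n := fun h => by exact_mod_cast h
  let q : L →ₗ[ℤ] ZMod 2 := AddMonoidHom.toIntLinearMap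
    { toFun := fun x => (β x x : ZMod 2)
      map_zero' := by simp
      map_add' := fun x y => by
        have : β y x = β x y := c (by rw [hβ, hβ, hs])
        simp only [map_add, LinearMap.add_apply, this, Int.cast_add]
        have : (β x y : ZMod 2) + β x y = 0 := by
          rw [← two_mul, show (2 : ZMod 2) = 0 from rfl, zero_mul]
        linear_combination this }
  have hq : ∀ x, q x = (β x x : ZMod 2) := fun _ => rfl
  obtain ⟨φ, h1, h2⟩ := exists_GL ((finrank_lat L).trans hn) hi.act q (fun e => ho fun x hx => by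
      have := LinearMap.congr_fun e ⟨x, hx⟩
      rw [hq] at this
      obtain ⟨k, hk⟩ := (ZMod.intCast_zmod_eq_zero_iff_dvd _ 2).1 this
      exact ⟨k, by rw [← hβ ⟨x, hx⟩ ⟨x, hx⟩, hk]; simp⟩)
    fun g x => by rw [hq, hq]; exact congrArg _ (c (by rw [hβ, hβ, hi.act_coe, hb]))
  exact ⟨φ, fun g e => h1 g (hi.act_eq_one.2 e), fun g h3 e => hi.act_eq_one.1 (h2 g h3 e)⟩

theorem inv_rad {b : LinearMap.BilinForm ℚ V} (hb : ∀ g x y, b (ρ g x) (ρ g y) = b x y)
    {L : Submodule ℤ V} (hi : Inv ρ L) : Inv ρ (rad b L) := fun g x hx =>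
  ⟨hi g x hx.1, fun y hy => by
    obtain ⟨n, e⟩ := hx.2 _ (hi g⁻¹ y hy)
    refine ⟨n, ?_⟩
    rw [← e, ← hb g x, ← End.mul_apply (ρ g) (ρ g⁻¹), ← map_mul, mul_inv_cancel, map_one,
      End.one_apply]⟩

theorem concl_of_max {n : ℕ} (hn : finrank ℚ V = n + 1) (he : Even n)
    {b : LinearMap.BilinForm ℚ V} (hs : ∀ x y, b x y = b y x)
    (hb : ∀ g x y, b (ρ g x) (ρ g y) = b x y) {L : Submodule ℤ V} [L.IsLattice ℚ] (hi : Inv ρ L)
    (h : Intg b L) (hm : ∀ M, L ≤ M → Inv ρ M → Intg b M → M ≤ L) : Concl ρ n := by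
  haveI := lattice_rad h
  have hb' : ∀ g x y, ((1 / 2 : ℚ) • b) (ρ g x) (ρ g y) = ((1 / 2 : ℚ) • b) x y := by
    simp [hb]
  by_cases h1 : ∀ x ∈ L, ∃ n : ℤ, b x x = 2 * n
  swap
  · exact concl_of_odd hn hs hb hi h h1
  by_cases h2 : ∀ x ∈ rad b L, ∃ n : ℤ, ((1 / 2 : ℚ) • b) x x = 2 * n
  swap
  · exact concl_of_odd hn (by simp [hs]) hb' (inv_rad hb hi) (intg_rad b L) h2
  exfalso
  let R := rad ((1 / 2 : ℚ) • b) (rad b L)
  let d : V →ₗ[ℤ] V := ((1 / 2 : ℚ) • (LinearMap.id : V →ₗ[ℚ] V)).restrictScalars ℤ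
  have hd : ∀ x, d x = (1 / 2 : ℚ) • x := fun _ => rfl
  have hM := hm (L ⊔ R.map d) le_sup_left (fun g x hx => by
      obtain ⟨y, hy, _, ⟨z, hz, rfl⟩, rfl⟩ := Submodule.mem_sup.1 hx
      rw [map_add]
      exact Submodule.add_mem_sup (hi g y hy)
        ⟨ρ g z, inv_rad hb' (inv_rad hb hi) g z hz, by rw [hd, hd, map_smul]⟩)
    fun x hx y hy => by
      obtain ⟨x1, hx1, _, ⟨x2, hx2, rfl⟩, rfl⟩ := Submodule.mem_sup.1 hx
      obtain ⟨y1, hy1, _, ⟨y2, hy2, rfl⟩, rfl⟩ := Submodule.mem_sup.1 hy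
      obtain ⟨a1, e1⟩ := h x1 hx1 y1 hy1
      obtain ⟨a2, e2⟩ := hx2.1.2 y1 hy1
      obtain ⟨a3, e3⟩ := hy2.1.2 x1 hx1
      obtain ⟨a4, e4⟩ := hx2.2 y2 hy2.1
      rw [hs] at e3
      simp only [LinearMap.smul_apply, smul_eq_mul] at e4
      refine ⟨a1 + a2 + a3 + a4, ?_⟩
      simp only [hd, map_add, map_smul, LinearMap.add_apply, LinearMap.smul_apply, smul_eq_mul,
        e1, e2, e3, Int.cast_add]
      linear_combination (1 / 2 : ℚ) * e4
  have := even_rank hs h h1 h2 fun x hx => ⟨d x, hM (Submodule.mem_sup_right ⟨x, hx, rfl⟩), by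
    rw [hd, ← Int.cast_smul_eq_zsmul ℚ, smul_smul]; simp⟩
  rw [hn, Nat.even_add_one] at this
  exact this he

theorem exists_max [FiniteDimensional ℚ V] {b : LinearMap.BilinForm ℚ V}
    (hb : ∀ x, b x x = 0 → x = 0) {L : Submodule ℤ V} [L.IsLattice ℚ] (hi : Inv ρ L)
    (h : Intg b L) : ∃ M : Submodule ℤ V, M.IsLattice ℚ ∧ Inv ρ M ∧ Intg b M ∧
      ∀ N, M ≤ N → Inv ρ N → Intg b N → N ≤ M := by
  classical
  let e := Module.Free.chooseBasis ℤ L
  let ψ : V →ₗ[ℚ] (Module.Free.ChooseBasisIndex ℤ L → ℚ) := LinearMap.pi fun i => b.flip (e i)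
  have hψ : Function.Injective ψ := by
    refine (injective_iff_map_eq_zero ψ).2 fun x hx => hb x ?_
    have : b x = 0 := (e.extendOfIsLattice ℚ).ext fun i => by
      rw [Basis.extendOfIsLattice_apply]
      exact congrFun hx i
    rw [this]; rfl
  let D : Submodule ℤ V := (Submodule.span ℤ (Set.range fun i => Pi.single i (1 : ℚ))).comap
    (ψ.restrictScalars ℤ)
  have hD : D.FG := Submodule.fg_of_fg_map_injective (f := ψ.restrictScalars ℤ) hψ
    ((Submodule.fg_span (Set.finite_range _)).of_le (Submodule.map_comap_le _ _))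
  have hle : ∀ N, L ≤ N → Intg b N → N ≤ D := fun N hN hI x hx => by
    choose a ha using fun i => hI x hx (e i) (hN (e i).2)
    have : ψ x = ∑ i, a i • Pi.single i (1 : ℚ) := funext fun i => by
      simp [ψ, ha, Finset.sum_apply, Pi.single_apply]
    rw [Submodule.mem_comap, LinearMap.restrictScalars_apply, this]
    exact Submodule.sum_mem _ fun i _ => Submodule.smul_mem _ _ (Submodule.subset_span ⟨i, rfl⟩)
  haveI : Module.Finite ℤ D := Module.Finite.iff_fg.2 hD
  obtain ⟨M, ⟨h1, h2, h3⟩, hM⟩ := set_has_maximal_iff_noetherian.2 (inferInstance : IsNoetherian ℤ D)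
    {M | L ≤ M.map D.subtype ∧ Inv ρ (M.map D.subtype) ∧ Intg b (M.map D.subtype)}
    ⟨L.comap D.subtype, by
      simp only [Set.mem_ofPred_eq, Submodule.map_comap_subtype, inf_eq_right.2 (hle L le_rfl h)]
      exact ⟨le_rfl, hi, h⟩⟩
  refine ⟨_, Submodule.IsLattice.of_le_of_isLattice_of_fg ℚ h1 (hD.of_le (hle _ h1 h3)), h2, h3,
    fun N k1 k2 k3 => ?_⟩
  have k4 : (N.comap D.subtype).map D.subtype = N := by
    rw [Submodule.map_comap_subtype, inf_eq_right.2 (hle N (h1.trans k1) k3)]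
  have := hM (N.comap D.subtype) (by
    simp only [Set.mem_ofPred_eq, k4]
    exact ⟨h1.trans k1, k2, k3⟩)
  rw [← k4, ← eq_of_le_of_not_lt (Submodule.map_le_iff_le_comap.1 k1) this]

theorem exists_data [Finite G] [FiniteDimensional ℚ V] : ∃ (b : LinearMap.BilinForm ℚ V)
    (L : Submodule ℤ V), (∀ x y, b x y = b y x) ∧ (∀ g x y, b (ρ g x) (ρ g y) = b x y) ∧
      (∀ x, b x x = 0 → x = 0) ∧ L.IsLattice ℚ ∧ Inv ρ L ∧ Intg b L := by
  classical
  haveI := Fintype.ofFinite G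
  let e := Module.finBasis ℚ V
  let b : LinearMap.BilinForm ℚ V := ∑ g, ∑ i, (LinearMap.mul ℚ ℚ).compl₁₂
    (e.coord i ∘ₗ ρ g) (e.coord i ∘ₗ ρ g)
  have hb : ∀ x y, b x y = ∑ g, ∑ i, e.repr (ρ g x) i * e.repr (ρ g y) i := fun x y => by
    simp [b, LinearMap.sum_apply]
  let S : Set V := Set.range fun p : G × Fin (finrank ℚ V) => ρ p.1 (e p.2)
  have hS : S.Finite := Set.finite_range _
  obtain ⟨⟨d, hd0⟩, hd⟩ := IsLocalization.exist_integer_multiples_of_finite (nonZeroDivisors ℤ)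
    fun p : (G × Fin (finrank ℚ V)) × G × Fin (finrank ℚ V) =>
      b (ρ p.1.1 (e p.1.2)) (ρ p.2.1 (e p.2.2))
  have hd1 : (d : ℚ) ≠ 0 := Int.cast_ne_zero.2 (nonZeroDivisors.ne_zero hd0)
  refine ⟨(d : ℚ) • b, Submodule.span ℤ S, fun x y => ?_, fun g x y => ?_, fun x hx => ?_,
    ⟨Submodule.fg_span hS, ?_⟩, fun g x hx => ?_, fun x hx y hy => ?_⟩
  · simp [hb, mul_comm]
  · simp only [LinearMap.smul_apply, hb, ← End.mul_apply, ← map_mul]
    exact congrArg _ (Equiv.sum_comp (Equiv.mulRight g)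
      fun k => ∑ i, e.repr (ρ k x) i * e.repr (ρ k y) i)
  · simp only [LinearMap.smul_apply, smul_eq_mul, mul_eq_zero, hd1, false_or, hb] at hx
    have h1 := (Finset.sum_eq_zero_iff_of_nonneg fun g _ =>
      Finset.sum_nonneg fun i _ => mul_self_nonneg _).1 hx 1 (Finset.mem_univ _)
    have h2 := (Finset.sum_eq_zero_iff_of_nonneg fun i _ => mul_self_nonneg _).1 h1
    refine e.repr.map_eq_zero_iff.1 (Finsupp.ext fun i => ?_)
    simpa using h2 i (Finset.mem_univ _)
  · rw [Submodule.span_span_of_tower, eq_top_iff, ← e.span_eq]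
    exact Submodule.span_mono (by rintro _ ⟨i, rfl⟩; exact ⟨(1, i), by simp⟩)
  · induction hx using Submodule.span_induction with
    | mem x hx =>
      obtain ⟨p, rfl⟩ := hx
      exact Submodule.subset_span ⟨(g * p.1, p.2), by simp⟩
    | zero => simp
    | add x y _ _ hx hy => rw [map_add]; exact Submodule.add_mem _ hx hy
    | smul a x _ hx => rw [map_zsmul]; exact Submodule.smul_mem _ _ hx
  · induction hx using Submodule.span_induction with
    | mem x hx =>
      induction hy using Submodule.span_induction with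
      | mem y hy =>
        obtain ⟨p, rfl⟩ := hx
        obtain ⟨q, rfl⟩ := hy
        obtain ⟨n, hn⟩ := hd (p, q)
        exact ⟨n, by simpa using hn.symm⟩
      | zero => exact ⟨0, by simp⟩
      | add y z _ _ hy hz =>
        obtain ⟨m, hm⟩ := hy
        obtain ⟨n, hn⟩ := hz
        exact ⟨m + n, by rw [map_add, hm, hn, Int.cast_add]⟩
      | smul a y _ hy =>
        obtain ⟨m, hm⟩ := hy
        exact ⟨a * m, by rw [map_zsmul, hm]; simp⟩
    | zero => exact ⟨0, by simp⟩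
    | add x z _ _ hx hz =>
      obtain ⟨m, hm⟩ := hx
      obtain ⟨n, hn⟩ := hz
      exact ⟨m + n, by rw [map_add, LinearMap.add_apply, hm, hn, Int.cast_add]⟩
    | smul a x _ hx =>
      obtain ⟨m, hm⟩ := hx
      exact ⟨a * m, by rw [map_zsmul, LinearMap.smul_apply, hm]; simp⟩

/-- an odd-dimensional rational representation has a reduction modulo `2` of codimension one -/
theorem concl [Finite G] [FiniteDimensional ℚ V] (ρ : G →* End ℚ V) {n : ℕ}
    (hn : finrank ℚ V = n + 1) (he : Even n) : Concl ρ n := by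
  obtain ⟨b, L, h1, h2, h3, h4, h5, h6⟩ := exists_data (ρ := ρ)
  obtain ⟨M, k1, k2, k3, k4⟩ := exists_max h3 h5 h6
  exact concl_of_max hn he h1 h2 k2 k3 k4

end lat

end CF.Fong
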