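import Cfsg.Agent.Mon.Gr2

/-! The model is defined over the dyadic numbers; sums modulo a prime; the element of order 23. -/

set_option autoImplicit false
set_option maxHeartbeats 400000

namespace CF.Mon.Gr

open Matrix Cfsg CF.Leech CF.Comp CF.Known.Mon Lab CF.Mon.G CF.Mon.T CF.Mon.W4 Finset

/-- the dyadic numbers -/
def DR : Subring ℝ where
  carrier := {x | ∃ k : ℕ, ∃ m : ℤ, 2 ^ k * x = m}
  zero_mem' := ⟨0, 0, by simp⟩
  one_mem' := ⟨0, 1, by simp⟩
  add_mem' := fun {x y} ⟨k, m, a⟩ ⟨l, n, b⟩ => ⟨k + l, 2 ^ l * m + 2 ^ k * n, by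
    push_cast; rw [← a, ← b]; ring⟩
  mul_mem' := fun {x y} ⟨k, m, a⟩ ⟨l, n, b⟩ => ⟨k + l, m * n, by push_cast; rw [← a, ← b]; ring⟩
  neg_mem' := fun {x} ⟨k, m, a⟩ => ⟨k, -m, by push_cast; rw [← a]; ring⟩

theorem dr_of {x y : ℝ} (e : x = y) (h : y ∈ DR) : x ∈ DR := e ▸ h

theorem dr_div {x : ℝ} (h : x ∈ DR) (k : ℕ) {c : ℝ} (e : c = 2 ^ k) : x / c ∈ DR :=
  dr_of (div_eq_mul_inv _ _) (mul_mem h ⟨k, 1, by simp [e]⟩)

theorem dr_chi (z : ZMod 2) : chi ℝ z ∈ DR := by
  rcases z2_cases z with rfl | rfl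
  · simp
  · simp

theorem dr_ket (w u : Ix) : ket w u ∈ DR := by
  by_cases h : u = w <;> simp [ket, Pi.single_apply, h]

theorem dr_PE (p : Lab) (w u : Ix) : PE p (ket w) u ∈ DR := by
  rw [PE_ket]; exact mul_mem (dr_chi _) (dr_ket _ _)

theorem dr_entry (γ : Gt) (w x u y : Ix) : hOf γ (ket w) x * hOf γ (ket u) y ∈ DR := by
  have col : ∀ x y, hOf γ (ket 0) x * hOf γ (ket 0) y ∈ DR := fun x y => by
    have := congrArg (fun v => hOf γ v y) (sum_PE (hOf γ⁻¹ (ket x)))
    simp only [map_sum, h_PE, h_inv, inv_entry, map_smul, Pi.smul_apply, smul_eq_mul,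
      Finset.sum_apply] at this
    have h : 4096 * hOf γ (ket 0) x * hOf γ (ket 0) y ∈ DR :=
      this ▸ sum_mem fun b _ => dr_PE _ _ _
    exact dr_of (by ring) (dr_div h 12 (c := 4096) (by norm_num))
  obtain ⟨a, b, e⟩ := entry_eq γ w x
  obtain ⟨c, d, f⟩ := entry_eq γ u y
  rw [e, f, mul_mul_mul_comm]
  exact mul_mem (mul_mem (dr_chi _) (dr_chi _)) (col _ _)

/-- the elements with dyadic operator part -/
def DG : Subgroup Gt where
  carrier := {γ | ∀ w x, hOf γ (ket w) x ∈ DR}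
  one_mem' := fun w x => by rw [map_one]; exact dr_ket _ _
  mul_mem' := fun {γ δ} h k w x => by
    rw [map_mul, LinearEquiv.mul_apply, expand]
    exact sum_mem fun u _ => mul_mem (k _ _) (h _ _)
  inv_mem' := fun h w x => by rw [inv_entry]; exact h _ _

instance DG_normal : DG.Normal := ⟨fun γ h δ w x => by
  rw [map_mul, map_mul, LinearEquiv.mul_apply, LinearEquiv.mul_apply, expand]
  refine sum_mem fun u _ => ?_
  rw [expand, Finset.sum_mul]
  refine sum_mem fun y _ => ?_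
  rw [inv_entry, mul_right_comm]
  exact mul_mem (dr_entry _ _ _ _ _) (h _ _)⟩

theorem DG_top : DG = ⊤ := by
  have p : ∀ p, pauli p ∈ DG := fun p _ _ => dr_PE _ _ _
  refine normal_eq_top (mul_mem (fun w x => dr_ket _ _) (p _)) (p _)
    (γ := yE.val) (fun w x => ?_) (gOf_yE ▸ eps_ne o1_mem _)
  rw [yE_ket]
  exact mul_mem (dr_chi _) (dr_ket _ _)

/-- vectors with dyadic coordinates -/
def DV (v : VV) : Prop :=
  (∀ i j, v.1.1 i j ∈ DR) ∧ (∀ p, v.1.2.1 p ∈ DR) ∧ ∀ i w, v.1.2.2 i w ∈ DR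

theorem DV.rho {v : VV} (h : DV v) (γ : Gt) : DV (rho γ • v) := by
  have g : ∀ i j, gM (gOf γ) i j ∈ DR := fun i j => dr_div (intCast_mem _ _) 3 (by norm_num)
  refine ⟨fun i j => ?_, fun p => h.2.1 _, fun i w => ?_⟩
  · simp only [rho_A, mul_apply, transpose_apply]
    exact sum_mem fun k _ => mul_mem (sum_mem fun l _ => mul_mem (g _ _) (h.1 _ _)) (g _ _)
  · simp only [rho_U, Finset.sum_apply, Pi.smul_apply, smul_eq_mul]
    refine sum_mem fun k _ => mul_mem (g _ _) ?_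
    rw [expand]
    exact sum_mem fun u _ => mul_mem (h.2.2 k u) ((DG_top ▸ Subgroup.mem_top γ : γ ∈ DG) u w)

theorem DV.tau {v : VV} (h : DV v) : DV (tau • v) := by
  have R := tau_rows
  have hW : ∀ x, Wc v x ∈ DR := fun x => h.2.1 _
  have h2 : (2 : ℝ) = 2 ^ 1 := by norm_num
  refine ⟨fun i j => ?_, lab_cases (fun p hp => ?_) (fun p hp => ?_) (fun i j k => ?_)
    (fun i j k => ?_) (fun o ho δ h1 h3 => ?_) (fun i d hd k => ?_), fun i w => ?_⟩
  · by_cases k : i = j
    · subst k; exact (R.diag v i).symm ▸ h.1 i i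
    · exact (R.off v i j k).symm ▸ dr_div (neg_mem (add_mem (hW _) (hW _))) 1 h2
  · rw [(Mon.tau • v : VV).2.2.2 p hp]; exact zero_mem _
  · rw [(Mon.tau • v : VV).2.2.1]; exact neg_mem hp
  · exact dr_of (R.rowB v i j k)
      (add_mem (neg_mem (h.1 _ _)) (dr_div (sub_mem (hW _) (hW _)) 1 h2))
  · exact dr_of (R.rowC v i j k) (add_mem (h.1 _ _) (dr_div (sub_mem (hW _) (hW _)) 1 h2))
  · exact dr_of (R.rowT v o ho δ h1 h3) (mul_mem (dr_div (one_mem _) 4 (by norm_num))
      (sum_mem fun _ _ => mul_mem (dr_chi _) (hW _)))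
  · exact dr_of (R.rowX v i d hd k) (mul_mem (dr_chi _) (h.2.2 _ _))
  · obtain ⟨d, hd, k, rfl | rfl⟩ := exists_ixd w
    · exact (R.rowZ v i d hd k).symm ▸ mul_mem (dr_chi _) (h.2.2 _ _)
    · exact (R.rowY v i d hd k).symm ▸ mul_mem (dr_chi _) (hW _)

theorem DV.smul {g : GLV} (hg : g ∈ MV) {v : VV} (h : DV v) : DV (g • v) := by
  let S : Subgroup GLV :=
    { carrier := {g | ∀ v, DV (g • v) ↔ DV v}
      one_mem' := fun v => by rw [one_smul]
      mul_mem' := fun a b v => by rw [mul_smul, a, b]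
      inv_mem' := fun {g} a v => by rw [← a, smul_inv_smul] }
  have : MV ≤ S := sup_le (by
    rintro _ ⟨γ, rfl⟩ v
    exact ⟨fun a => by simpa using a.rho γ⁻¹, fun a => a.rho γ⟩)
    (Subgroup.zpowers_le.2 fun v => ⟨fun a => by
      have := a.tau.tau
      rwa [← mul_smul, ← tau_inv, inv_smul_smul] at this, DV.tau⟩)
  exact (this hg v).2 h

theorem DV.ip {u v : VV} (h : DV u) (k : DV v) : ip u v ∈ DR := by
  rw [Mon.ip, ipA_eq]
  exact add_mem (add_mem (sum_mem fun _ _ => sum_mem fun _ _ => mul_mem (h.1 _ _) (k.1 _ _))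
    (mul_mem (dr_div (one_mem _) 1 (by norm_num))
      (sum_mem fun _ _ => mul_mem (h.2.1 _) (k.2.1 _))))
    (sum_mem fun _ _ => sum_mem fun _ _ => mul_mem (h.2.2 _ _) (k.2.2 _ _))

theorem dr_ee (t p : Lab) : ee t p ∈ DR := by unfold ee; split_ifs <;> simp

theorem DV_eW {p : Lab} (h : Short p) : DV (eW p) :=
  ⟨by simp, fun q => eW_W h ▸ dr_ee _ _, by simp⟩

theorem axis_eq : (axis tA : E) = (sq16 uA, (2 : ℝ) • ee tA, 0) :=
  axis_coe nm_uA (cls_uA ▸ Eqv.refl _)

theorem DV_axis : DV (axis tA) := by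
  rw [DV, axis_eq]
  exact ⟨fun i j => mul_mem (dr_div (one_mem _) 4 (by norm_num))
    (mul_mem (intCast_mem _ _) (intCast_mem _ _)),
    fun p => mul_mem (ofNat_mem _ _) (dr_ee _ _), by simp⟩

theorem ip_axis (v : VV) : ip v (axis tA) = v.1.1 (pt 0) (pt 0) + v.1.1 (pt 1) (pt 1) -
    2 * v.1.1 (pt 0) (pt 1) + 2 * v.1.2.1 tA := by
  have e : ∀ i, ∑ j, v.1.1 i j * (1 / 16 * (rv uA i * rv uA j)) =
      rv uA i * (1 / 4 * (v.1.1 i (pt 0) - v.1.1 i (pt 1))) := fun i => by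
    have := rv_dot' (v.1.1 i)
    rw [sum_congr rfl (g := fun j => rv uA i / 16 * (rv uA j * v.1.1 i j)) fun _ _ => by ring,
      ← mul_sum, ← dotProduct, this]
    ring
  simp only [ip, axis_eq, sq16, ipA_eq, Matrix.smul_apply, vecMulVec_apply, Pi.smul_apply,
    smul_eq_mul, e, Pi.zero_apply, dotProduct_zero, sum_const_zero]
  rw [← dotProduct, rv_dot', v.A_symm (pt 1)]
  simp only [mul_left_comm _ (2 : ℝ), mul_comm (v.1.2.1 _), ← mul_sum, sum_ee, v.2.2.1]
  ring

theorem tau_axis : tau⁻¹ • axis tA = axis tA := eq_of_ip fun v => by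
  have R := tau_rows
  have h1 := R.rowB v _ _ p01
  rw [Wc, show cls (m4 (pt 0) (pt 1)) = tA from cls_uA] at h1
  rw [ipB_apply, ipB_apply, ip_inv orth_tau, ip_axis, ip_axis, ← glv_apply, R.diag,
    R.diag, R.off v _ _ p01, h1, Wc, show cls (m4 (pt 0) (pt 1)) = tA from cls_uA]
  ring

/-! ### groups of prime order -/

open MulAction in
theorem sum_mod {G α R : Type*} [Group G] [MulAction G α] [Fintype α] [CommRing R] {p : ℕ}
    [Fact p.Prime] (h : IsPGroup p G) (S : Subring R) {f : α → R} (hf : ∀ a, f a ∈ S)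
    (hi : ∀ (g : G) a, f (g • a) = f a) (T : Finset α) (hT : ∀ a ∈ T, a ∈ fixedPoints G α)
    (h0 : ∀ a ∈ fixedPoints G α, a ∉ T → f a = 0) : ∃ r ∈ S, ∑ a, f a = ∑ a ∈ T, f a + p * r := by
  classical
  let N := univ.filter (· ∉ fixedPoints G α)
  have e : ∑ a, f a = ∑ a ∈ T, f a + ∑ a ∈ N, f a := by
    rw [← sum_filter_add_sum_filter_not univ (· ∈ fixedPoints G α),
      ← sum_subset (s₁ := T) (fun a k => by simpa using hT a k) fun a k => h0 a (by simpa using k)]
  have d : ∀ c, ∃ m : ℕ, (N.filter (f · = c)).card = p * m := fun c => by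
    let X : SubMulAction G α := ⟨{a | a ∉ fixedPoints G α ∧ f a = c}, fun g a k =>
      ⟨fun b => k.1 fun x => (smul_left_cancel_iff g).1 (by
        simpa [mul_smul] using b (g * x * g⁻¹)), (hi g a).trans k.2⟩⟩
    have := h.card_modEq_card_fixedPoints X
    rw [Nat.card_eq_zero.2 (Or.inl ⟨fun a : fixedPoints G X =>
      a.1.2.1 fun g => congrArg Subtype.val (a.2 g)⟩)] at this
    rw [← Nat.subtype_card (p := (· ∈ X)) _ fun a => by simp [N, X]; rfl]
    exact Nat.modEq_zero_iff_dvd.1 this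
  choose m hm using d
  refine ⟨∑ c ∈ N.image f, m c * c, sum_mem fun c k => ?_, ?_⟩
  · obtain ⟨a, -, rfl⟩ := mem_image.1 k
    exact mul_mem (natCast_mem _ _) (hf a)
  · rw [e, sum_comp (s := N) (fun c => c) f, mul_sum]
    simp only [hm, nsmul_eq_mul, Nat.cast_mul, mul_assoc]

theorem sum_mod' {G α R : Type*} [Group G] [MulAction G α] [Fintype α] [CommRing R] {p : ℕ}
    [Fact p.Prime] {s : G} (h : s ^ p = 1) (S : Subring R) {f : α → R} (hf : ∀ a, f a ∈ S)
    (hi : ∀ a, f (s • a) = f a) (T : Finset α) (hT : ∀ a ∈ T, s • a = a)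
    (h0 : ∀ a, s • a = a → a ∉ T → f a = 0) : ∃ r ∈ S, ∑ a, f a = ∑ a ∈ T, f a + p * r := by
  let H : Subgroup G :=
    { carrier := {g | ∀ a, f (g • a) = f a}
      one_mem' := fun v => by rw [one_smul]
      mul_mem' := fun a b v => by rw [mul_smul, a, b]
      inv_mem' := fun {g} a v => by rw [← a, smul_inv_smul] }
  refine sum_mod (G := Subgroup.zpowers s) (fun x => ⟨1, Subtype.ext ?_⟩) S hf
    (fun g => Subgroup.zpowers_le.2 (show s ∈ H from hi) g.2) T (fun a k g =>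
      Subgroup.zpowers_le.2 (show s ∈ MulAction.stabilizer G a from hT a k) g.2)
    fun a k => h0 a (k ⟨s, Subgroup.mem_zpowers s⟩)
  obtain ⟨n, e⟩ := x.2
  rw [pow_one, Subgroup.coe_pow, ← e, ← zpow_natCast, zpow_comm, zpow_natCast, h,
    _root_.one_zpow, Subgroup.coe_one]

theorem conj_zpowers {G : Type*} [Group G] [Finite G] {p : ℕ} [hp : Fact p.Prime]
    (h : ¬ p * p ∣ Nat.card G) {a b : G} (ha : orderOf a = p) (hb : orderOf b = p) :
    ∃ g : G, g * a * g⁻¹ ∈ Subgroup.zpowers b := by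
  have k : ∀ a : G, orderOf a = p → ∃ P : Sylow p G, (P : Subgroup G) = Subgroup.zpowers a :=
    fun a e => ⟨(IsPGroup.of_card (G := Subgroup.zpowers a) (n := 1)
      (by rw [Nat.card_zpowers, e, pow_one])).toSylow fun d => h (by
      rw [← (Subgroup.zpowers a).card_mul_index, Nat.card_zpowers, e]
      exact Nat.mul_dvd_mul_left _ d), rfl⟩
  obtain ⟨P, e⟩ := k a ha
  obtain ⟨Q, f⟩ := k b hb
  obtain ⟨g, rfl⟩ := MulAction.exists_smul_eq G P Q
  refine ⟨g, f ▸ ?_⟩
  rw [Sylow.coe_subgroup_smul, e]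
  exact Subgroup.smul_mem_pointwise_smul _ (MulAut.conj g) _ (Subgroup.mem_zpowers a)

theorem conj_fix {G α : Type*} [Group G] [Finite G] [MulAction G α] {p : ℕ} [hp : Fact p.Prime]
    (h : ¬ p * p ∣ Nat.card G) {s g : G} (o : orderOf s = p) {q : α} (a : s • q = q)
    (b : s • g • q = g • q) : ∃ n, n * s * n⁻¹ ∈ Subgroup.zpowers s ∧ n • q = g • q := by
  obtain ⟨k, n, f⟩ := conj_zpowers (G := MulAction.stabilizer G q) (p := p)
    (fun d => h (d.trans (Subgroup.card_subgroup_dvd_card _))) (a := ⟨s, a⟩)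
    (b := ⟨g⁻¹ * s * g, show _ • q = q by rw [mul_smul, mul_smul, b, inv_smul_smul]⟩)
    ((Subgroup.orderOf_mk _ _).trans o) ((Subgroup.orderOf_mk _ _).trans
      (by simpa using ((MulAut.conj g⁻¹).orderOf_eq s).trans o))
  refine ⟨g * k, ⟨n, ?_⟩, by rw [mul_smul, show k.1 • q = q from k.2]⟩
  have := congrArg (fun x => g * x.1 * g⁻¹) f
  simp only [SubgroupClass.coe_zpow, Subgroup.coe_mul, Subgroup.coe_inv, ← conj_zpow] at this
  simpa [mul_assoc] using this

theorem exists_s23 : ∃ s ∈ C0, orderOf s = 23 ∧ ∃ i, s • cls (vX i ∅) = cls (vX i ∅) ∧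
    ∀ p, Short p → s • p = p → p ≈ₗ cls (vX i ∅) := by
  haveI : Fact (Nat.Prime 23) := ⟨by norm_num⟩
  haveI : Finite M24 := Nat.finite_of_card_ne_zero (by rw [Mat.card_M24]; norm_num)
  obtain ⟨σ, h⟩ := exists_prime_orderOf_dvd_card' (G := M24) 23 (by rw [Mat.card_M24]; norm_num)
  obtain ⟨γ, a, b⟩ := exists_C0 σ
  obtain ⟨s, o⟩ := exists_prime_orderOf_dvd_card' (G := C0) 23 (by
    rw [← h, ← orderOf_injective _ permHom_injective, ← b]
    exact (orderOf_map_dvd _ _).trans (C0.orderOf_dvd_natCard a))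
  obtain ⟨s, c⟩ := s
  rw [← Subgroup.orderOf_coe] at o
  change orderOf s = 23 at o
  obtain ⟨π, e⟩ := c.1
  have o2 : orderOf π.1 = 23 := by
    rw [Subgroup.orderOf_coe, ← orderOf_injective _ permHom_injective, ← e]
    refine orderOf_eq_prime (by rw [← map_pow, ← o, pow_orderOf_eq_one, map_one]) fun k => ?_
    have := gOf.ker.orderOf_dvd_natCard k
    rw [o, ker_gOf, ← Nat.card_congr (MonoidHom.ofInjective pauli_injective).toEquiv,
      Lab.card] at this
    omega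
  have cy : π.1.IsCycle := Equiv.Perm.isCycle_of_prime_order' (by rw [o2]; norm_num)
    (by rw [o2, card_pts]; norm_num)
  obtain ⟨i, hi⟩ := card_eq_one.1 (show π.1.supportᶜ.card = 1 by
    rw [card_compl, ← cy.orderOf, o2, card_pts])
  have hs : ∀ j, π.1 j = j ↔ j = i := fun j => by
    rw [← Equiv.Perm.notMem_support, ← mem_compl, hi, mem_singleton]
  have hv : ∀ k, (vX i ∅ : V) k = if k = i then -3 else 1 := fun k => by
    simp [vX_apply i empty_mem_CS, ind]
  have sq : ∀ {α : Type} [MulAction Gt α] (p : α), s • s • p = p → s • p = p := fun p k => by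
    have : (s * s) ^ 12 = s := by
      rw [← pow_two, ← pow_mul, show 2 * 12 = orderOf s + 1 by rw [o], pow_succ,
        pow_orderOf_eq_one, one_mul]
    rw [← this]
    exact pow_mem (show s * s ∈ MulAction.stabilizer Gt p from (mul_smul _ _ _).trans k) 12
  refine ⟨s, c, o, i, sq _ ?_, fun p ⟨x, hx, k⟩ f => ?_⟩
  · have := smul_cls s (vX i ∅)
    rw [show gOf s • vX i ∅ = vX i ∅ from LL.ext fun k => by
      simp only [e, permHom_smul, hv, Equiv.symm_apply_eq, (hs i).2 rfl]] at this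
    rcases this.cases with k | k
    · rw [k, k]
    · rw [k, smul_xc_mul, k, xc_xc]
  have h1 : gOf s • x = x := by
    letI := MulAction.compHom LL gOf
    refine sq x (show gOf s • gOf s • x = x from ?_)
    rcases eq_or_neg_of_cls (x := gOf s • x) (y := x) (by rw [co_nm]; omega) (by omega)
      (((smul_cls s x).symm.trans (k.smul s).symm).trans (f.symm ▸ k)) with a | a
    · rw [a, a]
    · rw [a, co_neg, a, neg_neg]
  have h2 : ∀ n j, (x : V) ((π.1 ^ n) j) = (x : V) j := fun n j => by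
    induction n with
    | zero => rfl
    | succ n ih =>
      rw [pow_succ', Equiv.Perm.mul_apply, ← ih]
      conv_lhs => rw [← h1, e, permHom_smul, Equiv.symm_apply_apply]
  obtain ⟨j, hj⟩ := exists_ne i
  have h3 : ∀ F : Pt → ℤ → ℤ, (∀ k, k ≠ i → F k = F j) →
      ∑ k, F k ((x : V) k) = F i ((x : V) i) + 23 * F j ((x : V) j) := fun F hF => by
    rw [← add_sum_erase _ _ (mem_univ i), sum_congr rfl (g := fun _ => F j ((x : V) j))
      fun k a => by
        obtain ⟨n, rfl⟩ := cy.exists_pow_eq (mt (hs j).1 hj) (mt (hs k).1 (ne_of_mem_erase a))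
        rw [hF _ (ne_of_mem_erase a), h2], sum_const, card_erase_of_mem (mem_univ _), card_univ,
      card_pts]
    simp
  have h4 := h3 (fun _ a => a * a) fun _ _ => rfl
  have h5 := h3 (fun k a => a * if k = i then -3 else 1) fun k a => by simp [a, hj]
  simp only [← hv] at h5
  change dt x x = _ at h4
  change dt x (vX i ∅) = _ at h5
  rw [dt_self, hx] at h4
  rw [if_pos trivial, hv, if_neg hj] at h5
  have h6 := dvd_dt x (vX i ∅)
  have h7 := nm_sub x (vX i ∅)
  have h8 := nm_add x (vX i ∅)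
  rw [nm_vX i empty_mem_CS] at h7 h8
  generalize (x : V) i = a at h4 h5
  generalize (x : V) j = b at h4 h5
  have : -2 < b ∧ b < 2 ∧ -6 < a ∧ a < 6 := by refine ⟨?_, ?_, ?_, ?_⟩ <;> nlinarith
  obtain ⟨b1, b2, a1, a2⟩ := this
  have : dt x (vX i ∅) = 32 ∨ dt x (vX i ∅) = -32 := by interval_cases b <;> interval_cases a <;> omega
  rcases this with d | d
  · rcases nm_cases (x - vX i ∅) with z | z
    · exact sub_eq_zero.1 z ▸ k
    · omega
  · rcases nm_cases (x + vX i ∅) with z | z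
    · rw [add_eq_zero_iff_eq_neg.1 z, cls_neg] at k; exact k
    · omega

end CF.Mon.Gr
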