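import Cfsg.Agent.Mon.Gr3
import Cfsg.Agent.Mon.Covers

/-! The invariant product, as a sum over the axes. -/

set_option autoImplicit false
set_option maxHeartbeats 400000

namespace CF.Mon.Gr

open Matrix Cfsg CF.Leech CF.Comp CF.Known.Mon Lab CF.Mon.G CF.Mon.T CF.Mon.W4 Finset

/-- the axes -/
abbrev Om : Type := MV ⧸ AA rhoM tauM

/-- the base point -/
noncomputable abbrev o0 : Om := ((1 : MV) : MV ⧸ AA rhoM tauM)

noncomputable instance instFintypeOm : Fintype Om :=
  haveI := outM.finite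
  Fintype.ofFinite _

theorem A_axis {g : MV} (h : g ∈ AA rhoM tauM) : g.1 • axis tA = axis tA := by
  have : AA rhoM tauM ≤ (MulAction.stabilizer GLV (axis tA)).comap MV.subtype := sup_le (by
    rintro _ ⟨γ, a, rfl⟩
    exact (rho_axis γ short_tA).trans (congrArg axis a))
    (Subgroup.zpowers_le.2 (inv_mem_iff.1 tau_axis))
  exact this h

/-- the vector of an axis -/
noncomputable def ax (q : Om) : VV := q.out.1 • axis tA

/-- the involution of an axis -/
noncomputable def tt (q : Om) : MV := q.out * rhoM (pauli tA) * q.out⁻¹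

theorem out_o0 (q : Om) : q.out • o0 = q := by
  rw [MulAction.Quotient.smul_mk, smul_eq_mul, mul_one, QuotientGroup.out_eq']

theorem ax_eq (g : MV) : ax (g • o0) = g.1 • axis tA := by
  have := A_axis (q_eq.1 (out_o0 (g • o0)))
  rwa [Subgroup.coe_mul, Subgroup.coe_inv, mul_smul, inv_smul_eq_iff, eq_comm] at this

theorem tt_eq (g : MV) : tt (g • o0) = g * rhoM (pauli tA) * g⁻¹ :=
  q_conj outM.cA.ge (out_o0 (g • o0))

theorem ax_smul (g : MV) (q : Om) : ax (g • q) = g.1 • ax q := by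
  rw [← out_o0 q, ← mul_smul, ax_eq, ax_eq, ← mul_smul]; rfl

theorem tt_smul (g : MV) (q : Om) : tt (g • q) = g * tt q * g⁻¹ := by
  rw [← out_o0 q, ← mul_smul, tt_eq, tt_eq]; group

theorem tt_symm (q : Om) (v w : VV) : ip ((tt q).1 • v) w = ip ((tt q).1 • w) v := by
  have : tt q * tt q = 1 := by
    rw [tt, conj_mul, Out.tt, mul_one, mul_inv_cancel]
  rw [← orth_MV (tt q).2, ← mul_smul, ← Subgroup.coe_mul, this, ip_comm]
  rfl

/-- the points fixed by an element of order 23 -/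
theorem fix23 {s : Gt} (o : orderOf s = 23) {q q' : Om} (a : rhoM s • q = q)
    (a' : rhoM s • q' = q') (b : q ∉ Ob rhoM ⊤ o0) (b' : q' ∉ Ob rhoM ⊤ o0) :
    ∃ n, n * s * n⁻¹ ∈ Subgroup.zpowers s ∧ rhoM n • q' = q := by
  haveI : _root_.Fact (Nat.Prime 23) := ⟨by norm_num⟩
  obtain ⟨-, w, w0, L⟩ := levelM relsM.zero x_neM (hasD_of fun _ _ => dout_M relsM)
    ⟨covers.M, chkM⟩ rfl le_rfl outM.cA.ge
  have c : ∀ q : Om, rhoM s • q = q → q ∉ Ob rhoM ⊤ o0 → q ∈ Ob rhoM ⊤ (w 2 • o0) := fun q a b => by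
    obtain ⟨j, hj, k⟩ := L.cover q.out (by rw [← MonoidHom.range_eq_map, genM]; trivial)
    simp only [w0, one_smul, out_o0] at k
    have e := L.size j hj
    rw [← Ob_eq k, ncard_Ob, top_inf_eq, Subgroup.relIndex_top_right] at e
    have d := ((MulAction.stabilizer MV q).comap rhoM).orderOf_dvd_natCard (x := s) a
    have d := (Nat.mul_dvd_mul_right d _).trans
      ((MulAction.stabilizer MV q).comap rhoM).card_mul_index.dvd
    rw [o, e, card_Gt] at d
    rw [lenM] at hj
    interval_cases j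
    · exact absurd (by simpa [w0] using k) b
    · exact absurd d (by decide +kernel)
    · exact k
    all_goals exact absurd d (by decide +kernel)
  obtain ⟨g, -, e⟩ := Ob_trans (c q a b) (Ob_symm (c q' a' b'))
  subst e
  letI := MulAction.compHom Om rhoM
  exact conj_fix (p := 23) (by rw [card_Gt]; norm_num) o a' a

/-- the projection onto the traceless part -/
noncomputable def pr : VV →ₗ[ℝ] V0 :=
  (LinearMap.id - ((1 / 24 : ℝ) • trV).smulRight oneV).codRestrict _ fun v => by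
    convert sub_one_mem v using 1
    simp [div_eq_inv_mul]

theorem pr_coe (v : VV) : (pr v : VV) = v - (trV v / 24) • oneV := by
  simp [pr, div_eq_inv_mul]

theorem pr_of (v : V0) : pr v = v := Subtype.ext (by
  rw [pr_coe, LinearMap.mem_ker.1 v.2, zero_div, zero_smul, sub_zero])

theorem pr_one : pr oneV = 0 := Subtype.ext (by rw [pr_coe, trV_one]; simp)

/-- the action on the traceless part -/
noncomputable def act : MV →* Module.End ℝ V0 := resV.comp (Subgroup.inclusion MV_le_Fx)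

theorem act_coe (g : MV) (v : V0) : (act g v : VV) = g.1 • (v : VV) := rfl

theorem pr_smul (g : MV) (v : VV) : pr (g.1 • v) = act g (pr v) := Subtype.ext (by
  rw [act_coe, pr_coe, pr_coe, smul_sub, glv_smul, (MV_le_Fx g.2).1, (MV_le_Fx g.2).2])

theorem ip_pr (u : V0) (v : VV) : ip u (pr v) = ip u v := by
  have : ip u oneV = 0 := by
    rw [← LinearMap.mem_ker.1 u.2]
    simp [ip, ipA, oneV, trV]
  rw [pr_coe, ← ipB_apply, map_sub, LinearMap.map_smul, ipB_apply, ipB_apply, this, smul_zero,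
    sub_zero]

theorem exists_sum {α : Type*} [Fintype α] (g : α → MV) (a : α → V0) :
    ∃ m : V0 →ₗ[ℝ] V0 →ₗ[ℝ] V0, ∀ v w : V0, m v w = ∑ q, ip ((g q).1 • (v : VV)) w • a q :=
  ⟨∑ q, ((ipB.compl₁₂ (LinearMap.ker trV).subtype (LinearMap.ker trV).subtype) ∘ₗ
    act (g q)).compr₂ (LinearMap.toSpanSingleton ℝ V0 (a q)), fun v w => by
      simp only [LinearMap.sum_apply]; rfl⟩

theorem ip_sum {α : Type*} [Fintype α] (u : V0) (c : α → ℝ) (a : α → VV) :
    ip u (∑ q, c q • pr (a q) : V0) = ∑ q, ip u (a q) * c q := by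
  rw [← ipB_apply, Submodule.coe_sum, map_sum]
  exact sum_congr rfl fun q _ => by
    rw [Submodule.coe_smul, LinearMap.map_smul, ipB_apply, ip_pr, smul_eq_mul, mul_comm]

theorem ip_eW_axis {p q : Lab} (h : Short q) : ip (eW p) (axis q) = 2 * ee q p := by
  obtain ⟨x, a, b⟩ := h
  rw [ip_comm, ip_eW, axis_coe a b]; rfl

theorem ip_eU_axis {q : Lab} (h : Short q) (i : Pt) (w : Ix) : ip (eU i w) (axis q) = 0 := by
  obtain ⟨x, a, b⟩ := h
  rw [ip_comm, ip_eU, axis_coe a b]; rfl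

theorem sum_ne : ∃ u v w : V0, ∑ q, ip u (ax q) * ip ((tt q).1 • (v : VV)) w ≠ 0 := by
  classical
  haveI : _root_.Fact (Nat.Prime 23) := ⟨by norm_num⟩
  obtain ⟨s, c, o, i, a, b⟩ := exists_s23
  set p := cls (vX i ∅) with hp
  have h : Short p := short_cls (nm_vX i empty_mem_CS)
  have e1 : tau⁻¹ • eW p = eU i (ixd ∅ 0) := by
    simpa [ib] using sig_X i empty_mem_CS (notMem_empty _)
  have e2 : tau⁻¹ • eU i (ixd ∅ 0) = eU i (ixd ∅ 1) := by
    simpa [ib] using sig_Z i empty_mem_CS (notMem_empty _)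
  have e3 : tau • eW p = eU i (ixd ∅ 1) := by
    rw [← e2, ← e1, ← mul_smul, ← _root_.mul_inv_rev, ← tau_inv, inv_inv]
  have cm : ∀ v : VV, rho s • tau⁻¹ • v = tau⁻¹ • rho s • v := fun v => by
    rw [eq_inv_smul_iff, ← mul_smul, rels0.c0 s c, mul_smul, smul_inv_smul]
  have f0 : rho s • eW p = eW p := by rw [rho_eW, a]
  have f1 : rho s • eU i (ixd ∅ 0) = eU i (ixd ∅ 0) := by rw [← e1, cm, f0]
  have f2 : rho s • eU i (ixd ∅ 1) = eU i (ixd ∅ 1) := by rw [← e2, cm, f1]
  have tr : ∀ w, eU i w ∈ LinearMap.ker trV := fun w => by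
    change trace (eU i w).1.1 = 0
    rw [eU_A, trace_zero]
  have d0 := DV_eW h
  have tm : tau⁻¹ ∈ MV := inv_mem tauM.2
  have d1 := e1 ▸ d0.smul tm
  have d2 := e2 ▸ d1.smul tm
  refine ⟨⟨eW p, trV_eW p⟩, ⟨_, tr (ixd ∅ 0)⟩, ⟨_, tr (ixd ∅ 1)⟩, ?_⟩
  obtain ⟨g, hg⟩ := exists_smul_short short_tA h
  obtain ⟨g', hg'⟩ := exists_smul_short short_tA (short_xc_mul.2 h)
  have axg : ∀ g : Gt, ax (rhoM g • o0) = axis (g • tA) := fun g => by
    rw [ax_eq]; exact rho_axis g short_tA
  have ttg : ∀ g : Gt, (tt (rhoM g • o0)).1 = rho (pauli (g • tA)) := fun g => by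
    rw [tt_eq, rho_conj]; rfl
  have eqg : ∀ g k : Gt, g • tA = k • tA → rhoM g • o0 = rhoM k • o0 := fun g k e => q_eq.2 (by
    rw [← map_inv, ← map_mul]
    exact mem_AA _ _ (show _ • tA = tA by rw [mul_smul, ← e, inv_smul_smul]))
  have fg : ∀ g : Gt, s • g • tA = g • tA → rhoM s • rhoM g • o0 = rhoM g • o0 := fun g e => by
    rw [← mul_smul, ← map_mul]; exact eqg _ _ ((mul_smul _ _ _).trans e)
  obtain ⟨r, ⟨k, m, hr⟩, e⟩ := sum_mod' (s := rhoM s) (p := 23)
    (by rw [← map_pow, ← o, pow_orderOf_eq_one, map_one]) DR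
    (f := fun q => ip (eW p) (ax q) * ip ((tt q).1 • eU i (ixd ∅ 0)) (eU i (ixd ∅ 1)))
    (fun q => mul_mem (d0.ip (DV_axis.smul q.out.2)) ((d1.smul (tt q).2).ip d2))
    (fun q => by
      rw [ax_smul, tt_smul, ← ip_rho s (eW p) (ax q), ← ip_rho s ((tt q).1 • _), Subgroup.coe_mul,
        Subgroup.coe_mul, Subgroup.coe_inv, mul_smul, mul_smul, f0, f2,
        inv_smul_eq_iff.2 (show _ = (rhoM s).1 • _ from f1.symm)]
      rfl)
    {rhoM g • o0, rhoM g' • o0} (fun q k => by
      simp only [mem_insert, mem_singleton] at k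
      rcases k with rfl | rfl
      · exact fg _ (by rw [hg, a])
      · exact fg _ (by rw [hg', smul_xc_mul, a])) fun q k l => by
      simp only [mem_insert, mem_singleton, not_or] at l
      refine mul_eq_zero_of_left ?_ _
      by_cases z : q ∈ Ob rhoM ⊤ o0
      · obtain ⟨n, -, rfl⟩ := z
        rw [axg, ip_eW_axis (short_tA.smul n), ee_of_ne, mul_zero]
        intro y
        rcases y.symm.cases with y | y
        · exact l.1 (eqg _ _ (y.trans hg.symm))
        · exact l.2 (eqg _ _ (y.trans hg'.symm))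
      obtain ⟨n, y, rfl⟩ := fix23 o k (q' := tauM⁻¹ • rhoM g • o0)
        (by
          rw [eq_inv_smul_iff, ← mul_smul, relsM.c0 s c, mul_smul, smul_inv_smul,
            fg _ (by rw [hg, a])]) z (by
          rintro ⟨n, -, y⟩
          have := ip_eU_axis (short_tA.smul n) i (ixd ∅ 0)
          rw [← axg, y, ax_smul, axg, ← e1, hg] at this
          erw [orth_MV tm, ip_eW_axis h, ee_self] at this
          norm_num at this)
      obtain ⟨z, y⟩ := eW_eqv (b _ (h.smul n⁻¹) (by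
        rw [eq_inv_smul_iff, ← mul_smul, ← mul_smul]
        exact Subgroup.zpowers_le.2 (show s ∈ MulAction.stabilizer Gt p from a) y))
      rw [ax_smul, ax_smul, axg, hg, ← ip_rho n⁻¹, rho_eW, y, ← ipB_apply, LinearMap.map_smul₂,
        ipB_apply]
      erw [← mul_smul (rho n⁻¹) (rho n), ← map_mul, inv_mul_cancel, map_one, one_smul,
        ip_inv orth_tau, e3, ip_eU_axis h, smul_zero]
  rw [sum_pair fun y => xc_mul_ne p (axis_inj (short_xc_mul.2 h) h
    (by rw [← hg', ← axg, ← y, axg, hg])), axg, axg, ttg, ttg, hg, hg', ip_eW_axis h,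
    ip_eW_axis (short_xc_mul.2 h), ee_self, ee_comm, ee_xc, ee_self, pauli_eU, pauli_eU,
    (xc_eqv p).1, (xc_eqv p).2, cls_a_vX i empty_mem_CS, nrm_of (notMem_empty _),
    show ixd ∅ 0 + ixd ∅ 1 = ixd ∅ 1 by simp [ixd_empty], ← ipB_apply, ← ipB_apply,
    LinearMap.map_smul₂, LinearMap.map_smul₂, ipB_apply, ip_eU] at e
  intro y
  rw [show (xc * p).s = p.s + 1 by simp [xc, add_comm], add_right_comm p.s, chi_add _ 1, chi_one,
    show (eU i (ixd ∅ 1)).1.2.2 i (ixd ∅ 1) = 1 by simp [ket]] at e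
  replace e := y.symm.trans e
  have : ∀ z : ℤ, chi ℝ (p.s + p.b ⬝ᵥ ixd ∅ 0) = z → 23 ∣ 2 ^ (k + 2) * z := fun z l =>
    ⟨-m, Int.cast_injective (α := ℝ) (by
      push_cast at e ⊢
      rw [← hr, ← l]
      simp only [smul_eq_mul] at e
      linear_combination -2 ^ k * e)⟩
  have n : ¬ (23 : ℤ) ∣ 2 ^ (k + 2) := fun d =>
    absurd (Int.Prime.dvd_pow' (by norm_num) d) (by norm_num)
  rcases z2_cases (p.s + p.b ⬝ᵥ ixd ∅ 0) with l | l
  · exact n (by simpa using this 1 (by simp [l]))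
  · exact n (by simpa using this (-1) (by simp [l]))

/-- equivariant products -/
def Eqv (m : V0 →ₗ[ℝ] V0 →ₗ[ℝ] V0) : Prop := ∀ g u v, m (act g u) (act g v) = act g (m u v)

/-- the trilinear form of a product -/
noncomputable def tri (m : V0 →ₗ[ℝ] V0 →ₗ[ℝ] V0) : Tri where
  toFun u := (m.compl₁₂ pr pr).compr₂ (ipB (pr u) ∘ₗ (LinearMap.ker trV).subtype)
  map_add' a b := LinearMap.ext fun v => LinearMap.ext fun w => by simp
  map_smul' c a := LinearMap.ext fun v => LinearMap.ext fun w => by simp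

theorem tri_apply (m : V0 →ₗ[ℝ] V0 →ₗ[ℝ] V0) (u v w : VV) :
    tri m u v w = ipB (pr u) (m (pr v) (pr w)) := rfl

theorem Eqv.eq_zero {m : V0 →ₗ[ℝ] V0 →ₗ[ℝ] V0} (h : Eqv m)
    (h0 : tri m (eW tA) (eW tB) (eW (tA * tB)) = 0) : m = 0 := by
  have f : ∀ g : MV, Fix g.1 (tri m) := fun g u v w => by
    rw [tri_apply, tri_apply, pr_smul, pr_smul, pr_smul, h]
    exact orth_MV g.2 _ _
  have := tri_eq_zero (fun γ => f (rhoM γ)) (f tauM) (fun v w => by simp [tri_apply, pr_one])
    (fun v w => by simp [tri_apply, pr_one]) (fun v w => by simp [tri_apply, pr_one]) h0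
  refine LinearMap.ext fun v => LinearMap.ext fun w => Subtype.ext (eq_zero_of_ip ?_)
  have e := tri_apply m (m v w) v w
  rw [this, pr_of, pr_of, pr_of] at e
  exact e.symm

/-- the Norton product -/
theorem norton : ∃ m : V0 →ₗ[ℝ] V0 →ₗ[ℝ] V0, m ≠ 0 ∧ (∀ u v, m u v = m v u) ∧ Eqv m ∧
    ∀ m', Eqv m' → ∃ c : ℝ, m' = c • m := by
  obtain ⟨m, h⟩ := exists_sum tt fun q => pr (ax q)
  have h0 : m ≠ 0 := fun e => by
    obtain ⟨u, v, w, k⟩ := sum_ne
    rw [← ip_sum, ← h, e, ← ipB_apply] at k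
    simp at k
  have h1 : Eqv m := fun g u v => by
    rw [h, h, map_sum, ← Equiv.sum_comp (MulAction.toPerm g)]
    refine sum_congr rfl fun q _ => ?_
    rw [MulAction.toPerm_apply, ax_smul, tt_smul, pr_smul, LinearMap.map_smul, act_coe, act_coe,
      Subgroup.coe_mul, Subgroup.coe_mul, Subgroup.coe_inv, mul_smul, mul_smul, inv_smul_smul,
      orth_MV g.2]
  refine ⟨m, h0, fun u v => by simp only [h, tt_symm _ u.1], h1, fun m' k => ?_⟩
  have n := mt h1.eq_zero h0
  let c := tri m' (eW tA) (eW tB) (eW (tA * tB)) / tri m (eW tA) (eW tB) (eW (tA * tB))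
  have := Eqv.eq_zero (m := m' + (-c) • m) (fun g u v => by simp [h1 g, k g]) (by
    have := div_mul_cancel₀ (tri m' (eW tA) (eW tB) (eW (tA * tB))) n
    simp only [tri_apply, LinearMap.add_apply, LinearMap.smul_apply, Submodule.coe_add,
      Submodule.coe_smul, map_add, LinearMap.map_smul, smul_eq_mul, c] at this ⊢
    linarith)
  refine ⟨c, LinearMap.ext fun u => LinearMap.ext fun v => ?_⟩
  have := LinearMap.congr_fun (LinearMap.congr_fun this u) v
  refine Subtype.ext (eq_of_ip fun w => ?_)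
  have := congrArg (fun x : V0 => ipB w x) this
  simp only [LinearMap.add_apply, LinearMap.smul_apply, Submodule.coe_add, LinearMap.zero_apply,
    Submodule.coe_smul, map_add, LinearMap.map_smul, smul_eq_mul, Submodule.coe_zero,
    map_zero] at this ⊢
  linarith

theorem irred (W : Submodule ℝ V0) (h : ∀ g, ∀ v ∈ W, act g v ∈ W) : W = ⊥ ∨ W = ⊤ := by
  refine or_iff_not_imp_left.2 fun n => Submodule.map_injective_of_injective
    (LinearMap.ker trV).injective_subtype ?_
  rw [Submodule.map_top, Submodule.range_subtype]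
  exact Inv.eq_ker ⟨by rintro γ _ ⟨v, a, rfl⟩; exact ⟨_, h (rhoM γ) v a, rfl⟩,
    by rintro _ ⟨v, a, rfl⟩; exact ⟨_, h tauM v a, rfl⟩⟩ (Submodule.map_subtype_le _ _)
    fun e => n (Submodule.map_injective_of_injective (LinearMap.ker trV).injective_subtype
      (e.trans (Submodule.map_bot _).symm))

end CF.Mon.Gr
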