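import Cfsg.Agent.Mon.W4c

/-! The rational form of the `4371`-dimensional subspace. -/

set_option autoImplicit false
set_option maxHeartbeats 400000

namespace CF.Mon.W4

open Matrix Cfsg CF.Leech CF.Comp CF.Known.Mon Lab CF.Mon.G CF.Mon.T Finset Module

theorem qsmul (q : ℚ) (v : VV) : q • v = (q : ℝ) • v := (Rat.cast_smul_eq_qsmul ℝ q v).symm

/-- the rational points of the subspace -/
def WQ : Submodule ℚ VV where
  carrier := {v | WC v ∧ RatV v}
  add_mem' := fun ⟨h, a⟩ ⟨k, b⟩ => ⟨⟨fun i j c d => by simp [h.a0 i j c d, k.a0 i j c d],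
      fun i c => by simp [h.a1 i c, k.a1 i c, add_comm], by simp [h.a2, k.a2],
      by simp [h.a3, k.a3, add_comm], fun p c => by simp [h.w1 p c, k.w1 p c],
      fun p c => by simp [h.w2 p c, k.w2 p c, add_comm], fun i c => by simp [h.u0 i c, k.u0 i c],
      by simp [h.u1, k.u1, add_comm], fun w c => by simp [h.u2 w c, k.u2 w c]⟩,
    fun i j => add_mem (a.1 i j) (b.1 i j), fun p => add_mem (a.2.1 p) (b.2.1 p),
    fun i w => add_mem (a.2.2 i w) (b.2.2 i w)⟩
  zero_mem' := ⟨⟨by simp, by simp, by simp, by simp, by simp, by simp, by simp, by simp, by simp⟩,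
    fun _ _ => zero_mem _, fun _ => zero_mem _, fun _ _ => zero_mem _⟩
  smul_mem' := fun q v ⟨h, a⟩ => by
    rw [qsmul]
    exact ⟨⟨fun i j c d => by simp [h.a0 i j c d], fun i c => by simp [h.a1 i c], by simp [h.a2],
      by simp [h.a3], fun p c => by simp [h.w1 p c], fun p c => by simp [h.w2 p c],
      fun i c => by simp [h.u0 i c], by simp [h.u1], fun w c => by simp [h.u2 w c]⟩,
      fun i j => mul_mem (rat_mem q) (a.1 i j), fun p => mul_mem (rat_mem q) (a.2.1 p),
      fun i w => mul_mem (rat_mem q) (a.2.2 i w)⟩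

abbrev J1 : Type := {k : Pt // k ≠ pt 1}
abbrev J2 : Type := {p : Lab // p ∈ SS ∧ p.s = 0 ∧ p.b 0 = 0}
abbrev J3 : Type := {w : Ix // w 0 = w 1}
/-- the independent coordinates -/
abbrev JJ : Type := J1 ⊕ J2 ⊕ J3

/-- shifting by a power of `tA` -/
def sh (e s : ZMod 2) (p : Lab) : Lab := ⟨p.a, p.b + e • tA.b, s⟩

theorem sh_mem {p : Lab} (h : p ∈ SS) (e s : ZMod 2) : sh e s p ∈ SS := by
  rcases z2_cases e with rfl | rfl
  · exact SS.congr h ⟨rfl, by simp [sh]⟩
  · exact SS.congr (SS.tA h) ⟨by simp [sh, tA_a], by simp [sh, add_comm]⟩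

theorem sh_sh (e s e' s' : ZMod 2) (p : Lab) : sh e s (sh e' s' p) = sh (e' + e) s p :=
  Lab.ext rfl (by simp [sh, add_smul, add_assoc]) rfl

theorem sh_zero (p : Lab) : sh 0 p.s p = p := Lab.ext rfl (by simp [sh]) rfl

theorem sh_zero' {p : Lab} (h : p.s = 0) : sh 0 0 p = p := Lab.ext rfl (by simp [sh]) h.symm

theorem sh_b0 (e s : ZMod 2) (p : Lab) : (sh e s p).b 0 = p.b 0 + e := by simp [sh, tA_b0]

/-- the representative -/
def rep (p : SS) : J2 := ⟨sh (p.1.b 0) 0 p.1, sh_mem p.2 _ _, rfl, by rw [sh_b0, z2_add_self]⟩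

theorem card_J2 : Nat.card J2 = 2300 := by
  have e : SS ≃ ZMod 2 × ZMod 2 × J2 :=
    { toFun := fun p => (p.1.b 0, p.1.s, rep p)
      invFun := fun x => ⟨sh x.1 x.2.1 x.2.2.1, sh_mem x.2.2.2.1 _ _⟩
      left_inv := fun p => Subtype.ext (by simp only [rep, sh_sh, z2_add_self, sh_zero])
      right_inv := fun ⟨e, s, p, h1, h2, h3⟩ => Prod.ext (by simp [sh_b0, h3])
        (Prod.ext rfl (Subtype.ext (by
          simp only [rep, sh_sh, sh_b0, h3, zero_add, z2_add_self, sh_zero' h2]))) }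
  have := Nat.card_congr e
  rw [Nat.card_coe_set_eq, SS, ncard_orb_tB, Nat.card_prod, Nat.card_prod, Nat.card_zmod] at this
  omega

theorem card_J3 : Nat.card J3 = 2048 := by
  have e : Ix ≃ ZMod 2 × J3 :=
    { toFun := fun w => (w 0 + w 1, ⟨w + Pi.single 0 (w 0 + w 1), by
        simp [← add_assoc, z2_add_self]⟩)
      invFun := fun x => x.2.1 + Pi.single 0 x.1
      left_inv := fun w => ix_add_add w (Pi.single 0 (w 0 + w 1))
      right_inv := fun x => by
        obtain ⟨e, w, h⟩ := x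
        have : w 0 + e + w 1 = e := by rw [h, add_right_comm, z2_add_self, zero_add]
        have h2 : (w + Pi.single 0 e : Ix) 0 + (w + Pi.single 0 e : Ix) 1 = e := by
          simpa using this
        refine Prod.ext h2 (Subtype.ext ?_)
        change w + Pi.single 0 e + Pi.single 0 ((w + Pi.single 0 e : Ix) 0 +
          (w + Pi.single 0 e : Ix) 1) = w
        rw [h2, ix_add_add] }
  have := Nat.card_congr e
  rw [Nat.card_prod, Nat.card_zmod, Nat.card_fun, Nat.card_zmod, Nat.card_fin] at this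
  omega

theorem card_JJ : Nat.card JJ = 4371 := by
  have : Nat.card J1 = 23 := by
    rw [Nat.card_eq_fintype_card, Fintype.card_subtype_compl, card_pts]; simp
  rw [Nat.card_sum, Nat.card_sum, this, card_J2, card_J3]

/-- the coordinates -/
def crdW : WQ →ₗ[ℚ] (JJ → ℝ) where
  toFun v := Sum.elim (fun k => v.1.1.1 (pt 0) k)
    (Sum.elim (fun p => v.1.1.2.1 p) fun w => v.1.1.2.2 (pt 0) w)
  map_add' u v := funext fun j => by rcases j with j | j | j <;> rfl
  map_smul' c v := funext fun j => by rcases j with j | j | j <;> rfl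

theorem WC.sh {v : VV} (h : WC v) {p : Lab} (hp : p ∈ SS) (e s : ZMod 2) :
    v.1.2.1 (sh e s p) = chi ℝ (e + s + p.s) * v.1.2.1 p := by
  have k : ∀ q : Lab, v.1.2.1 (W4.sh 0 s q) = chi ℝ (s + q.s) * v.1.2.1 q := fun q => by
    rw [← W_xp]
    exact congrArg _ (Lab.ext (by simp [W4.sh]) (by simp [W4.sh])
      (by simp [W4.sh, add_assoc, z2_add_self]))
  rcases z2_cases e with rfl | rfl
  · rw [k, zero_add]
  · rw [show W4.sh 1 s p = W4.sh 0 s (tA * p) from
      Lab.ext (by simp [W4.sh, tA_a]) (by simp [W4.sh, add_comm]) rfl, k, h.w2 p hp, mul_s, ← bf_tA,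
      SS.bf hp, tA_s]
    simp [chi_add]

theorem crdW_inj : Function.Injective crdW := by
  refine (injective_iff_map_eq_zero _).2 fun ⟨v, h, _⟩ e => Subtype.ext ?_
  have e1 : ∀ k, k ≠ pt 1 → v.1.1 (pt 0) k = 0 := fun k a => congrFun e (.inl ⟨k, a⟩)
  have e2 : ∀ p : J2, v.1.2.1 p = 0 := fun p => congrFun e (.inr (.inl p))
  have e3 : v.1.2.2 (pt 0) = 0 := funext fun w => by
    by_cases a : w 0 = w 1
    · exact congrFun e (.inr (.inr ⟨w, a⟩))
    · exact h.u2 w a
  refine VV.ext (Matrix.ext fun i j => ?_) (fun p => ?_) fun i => ?_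
  · change v.1.1 i j = 0
    have k0 : ∀ k, v.1.1 (pt 0) k = 0 := fun k => by
      by_cases a : k = pt 1
      · rw [a, h.a2]
      · exact e1 k a
    have k1 : ∀ k, v.1.1 (pt 1) k = 0 := fun k => by
      rcases in_cases k with rfl | rfl | a
      · rw [v.A_symm, k0]
      · rw [h.a3, k0, neg_zero]
      · rw [h.a1 k a, k0, neg_zero]
    rcases in_cases i with rfl | rfl | a
    · exact k0 j
    · exact k1 j
    rcases in_cases j with rfl | rfl | b
    · rw [v.A_symm, k0]
    · rw [v.A_symm, k1]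
    · exact h.a0 i j a b
  · by_cases a : p ∈ SS
    · have := h.sh (rep ⟨p, a⟩).2.1 (p.b 0) p.s
      rw [e2, mul_zero] at this
      simp only [rep, sh_sh, z2_add_self, sh_zero] at this
      exact this
    · exact h.w1 p a
  · change v.1.2.2 i = 0
    rcases in_cases i with rfl | rfl | a
    · exact e3
    · rw [h.u1, e3, neg_zero]
    · exact h.u0 i a

theorem rv_mem (i : Pt) : rv uA i ∈ QR := intCast_mem _ _

open Classical in
theorem crdW_surj {x : JJ → ℝ} (hx : ∀ j, x j ∈ QR) : ∃ v, crdW v = x := by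
  let y : Pt → ℝ := fun k => if h : In k then x (.inl ⟨pt 0, p01⟩) / 8
    else x (.inl ⟨k, fun e => h (Or.inr e)⟩) / 4
  let f : Lab → ℝ := fun p => if h : p ∈ SS then
    chi ℝ (p.b 0 + p.s) * x (.inr (.inl (rep ⟨p, h⟩))) else 0
  let u : St := fun w => if h : w 0 = w 1 then x (.inr (.inr ⟨w, h⟩)) / 4 else 0
  have hy : ∀ k, y k ∈ QR := fun k => by
    simp only [y]; split_ifs <;> exact div_mem (hx _) (ofNat_mem _ _)
  let v : VV := ⟨(vecMulVec (rv uA) y + vecMulVec y (rv uA), f, fun i => rv uA i • u),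
    by simp [transpose_add, add_comm], fun p => by
      by_cases h : p ∈ SS
      · simp only [f, dif_pos h, dif_pos (xc_mem_SS.2 h)]
        rw [show rep ⟨xc * p, xc_mem_SS.2 h⟩ = rep ⟨p, h⟩ from
          Subtype.ext (Lab.ext (by simp [rep, sh]) (by simp [rep, sh]) rfl)]
        simp [chi_add]
      · simp only [f, dif_neg h, dif_neg (mt xc_mem_SS.1 h), neg_zero],
    fun p h => dif_neg (mt SS.short h)⟩
  refine ⟨⟨v, WC.of (y := y) (u := u) (by simp [rv_dot', y]) rfl (fun p h => dif_neg h)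
    (fun p h => ?_) (PE_tA_iff.2 fun w h => dif_neg h) fun _ => rfl, fun i j => ?_, fun p => ?_,
    fun i w => ?_⟩, funext fun j => ?_⟩
  · change f _ = -f _
    simp only [f, dif_pos h, dif_pos (SS.tA h)]
    rw [show rep ⟨tA * p, SS.tA h⟩ = rep ⟨p, h⟩ from
      Subtype.ext (Lab.ext (by simp [rep, sh, tA_a]) (by
        simp only [rep, sh, mul_b, Pi.add_apply, tA_b0, add_smul, one_smul]
        rw [add_add_add_comm, ix_add_self, zero_add]) rfl), mul_s, ← bf_tA, SS.bf h]
    simp [chi_add, tA_b0, tA_s]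
  · exact add_mem (mul_mem (rv_mem _) (hy _)) (mul_mem (hy _) (rv_mem _))
  · change f p ∈ QR
    simp only [f]; split_ifs
    · exact mul_mem (chi_mem _) (hx _)
    · exact zero_mem _
  · refine mul_mem (rv_mem _) ?_
    simp only [u]; split_ifs
    · exact div_mem (hx _) (ofNat_mem _ _)
    · exact zero_mem _
  · rcases j with ⟨k, a⟩ | ⟨p, a, b, c⟩ | ⟨w, a⟩
    · change rv uA (pt 0) * y k + y (pt 0) * rv uA k = _
      rcases in_cases k with rfl | rfl | b
      · simp only [y, dif_pos in0, rv0]; ring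
      · exact absurd rfl a
      · simp only [y, dif_pos in0, dif_neg b, rv0, rv2 b]; ring
    · change f p = _
      simp only [f, dif_pos a]
      rw [show rep ⟨p, a⟩ = ⟨p, a, b, c⟩ from Subtype.ext (by simp only [rep, c, sh_zero' b])]
      simp [b, c]
    · change rv uA (pt 0) * u w = _
      simp only [u, dif_pos a, rv0]; ring

theorem finrank_WQ : finrank ℚ WQ = 4371 := by
  haveI := Fintype.ofFinite JJ
  let c : (JJ → ℚ) →ₗ[ℚ] (JJ → ℝ) := (Algebra.linearMap ℚ ℝ).compLeft JJ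
  have hc : Function.Injective c := fun a b e => funext fun j =>
    Rat.cast_injective (α := ℝ) (congrFun e j)
  have : LinearMap.range crdW = LinearMap.range c := by
    ext x
    constructor
    · rintro ⟨⟨v, h', h⟩, rfl⟩
      have : ∀ j, ∃ q : ℚ, (q : ℝ) = crdW ⟨v, h', h⟩ j := fun j => by
        rcases j with j | j | j
        · exact h.1 _ _
        · exact h.2.1 _
        · exact h.2.2 _ _
      choose q hq using this
      exact ⟨q, funext hq⟩
    · rintro ⟨q, rfl⟩
      exact crdW_surj fun j => rat_mem _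
  rw [← LinearMap.finrank_range_of_inj crdW_inj, this, LinearMap.finrank_range_of_inj hc,
    finrank_fintype_fun_eq_card, ← Nat.card_eq_fintype_card, card_JJ]

/-! ### the representation -/

/-- the stabiliser of the rational subspace -/
def SW : Submonoid GLV where
  carrier := {g | ∀ v ∈ WQ, g • v ∈ WQ}
  one_mem' := fun v h => by rwa [one_smul]
  mul_mem' := fun a b v h => by rw [mul_smul]; exact a _ (b v h)

theorem rho_mem_SW {γ : Gt} (h : γ ∈ PA) : rho γ ∈ SW := fun _ k => ⟨k.1.rho h, k.2.rho γ⟩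

theorem tau_mem_SW : tau ∈ SW := fun _ k => ⟨k.1.tau, k.2.tau⟩

/-- the action on the subspace -/
noncomputable def actW : SW →* End ℚ WQ where
  toFun g := ((g.1.1 : End ℝ VV).restrictScalars ℚ).restrict g.2
  map_one' := rfl
  map_mul' _ _ := rfl

theorem actW_coe (g : SW) (v : WQ) : (actW g v : VV) = g.1 • (v : VV) := rfl

theorem actW_tA : actW ⟨_, rho_mem_SW tA_mem_PA⟩ = 1 := LinearMap.ext fun ⟨v, h, _⟩ => by
  refine Subtype.ext (VV.ext (rho_pauli_A _ _) (fun p => ?_) fun i => ?_)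
  · change v.1.2.1 ((pauli tA)⁻¹ • p) = v.1.2.1 p
    by_cases a : p ∈ SS
    · rw [inv_smul_eq_iff.2 (pauli_smul_eq_iff.2 (SS.bf a)).symm]
    · rw [h.w1 p a, h.w1 _ fun b => a (by simpa using SS.smul b tA_mem_PA)]
  · obtain ⟨u, hu, hU⟩ := h.exU
    change (rho (pauli tA) • v : VV).1.2.2 i = v.1.2.2 i
    simp [rho_U, gM_one, one_apply, hU, hu]

theorem actW_tau : actW ⟨_, tau_mem_SW⟩ ≠ 1 := fun e => by
  obtain ⟨v, hv⟩ := crdW_surj (x := Sum.elim (fun _ => 1) fun _ => 0) (by
    rintro (j | j)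
    · exact one_mem _
    · exact zero_mem _)
  have h2 : ¬ In (pt 2) := by rintro (a | a); exacts [p02 a.symm, p12 a.symm]
  have e1 : v.1.1.1 (pt 0) (pt 2) = 1 := congrFun hv (.inl ⟨pt 2, p12.symm⟩)
  have e2 : ∀ p ∈ SS, v.1.1.2.1 p = 0 := fun p a => by
    have := v.2.1.sh (rep ⟨p, a⟩).2.1 (p.b 0) p.s
    rw [show v.1.1.2.1 (rep ⟨p, a⟩) = 0 from congrFun hv (.inr (.inl _)), mul_zero] at this
    simp only [rep, sh_sh, z2_add_self, sh_zero] at this
    exact this
  have e3 : tau.1 v.1 = v.1 := congrArg Subtype.val (LinearMap.congr_fun e v)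
  have := tau_rows.off v.1 _ _ p02
  rw [e3, e1, Wc, Wc, e2 _ ((lB0 p02).1.2 (by simp [h2])), e2 _ ((lB0 p02).2.2 (by simp [h2]))]
    at this
  norm_num at this

end CF.Mon.W4
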